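import Mathlib
import Cfsg.Agent.Lib.QuadDisc.Basic

set_option autoImplicit false

/-!
Gram matrices of tensor products of bilinear forms.
-/

namespace Cfsg.Agent.Lib.QuadDisc.Tensor

open Module Cfsg.Agent.Lib.QuadDisc.Basic

open scoped Kronecker

variable {F U W : Type*} [Field F] [AddCommGroup U] [Module F U] [AddCommGroup W] [Module F W]
  {ι κ : Type*} [Fintype ι] [DecidableEq ι] [Fintype κ] [DecidableEq κ]

theorem gram_tmul (b₁ : Basis ι F U) (b₂ : Basis κ F W) (B₁ : LinearMap.BilinForm F U) (B₂ : LinearMap.BilinForm F W) :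
    LinearMap.BilinForm.toMatrix (b₁.tensorProduct b₂) (B₁.tmul B₂) =
      LinearMap.BilinForm.toMatrix b₁ B₁ ⊗ₖ LinearMap.BilinForm.toMatrix b₂ B₂ := by
  ext ⟨i, j⟩ ⟨i', j'⟩
  rw [LinearMap.BilinForm.toMatrix_apply]
  simp only [Basis.tensorProduct_apply, Matrix.kroneckerMap_apply, LinearMap.BilinForm.toMatrix_apply]
  rw [LinearMap.BilinForm.tensorDistrib_tmul, smul_eq_mul, mul_comm]

theorem det_gram_tmul (b₁ : Basis ι F U) (b₂ : Basis κ F W) (B₁ : LinearMap.BilinForm F U) (B₂ : LinearMap.BilinForm F W) :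
    (LinearMap.BilinForm.toMatrix (b₁.tensorProduct b₂) (B₁.tmul B₂)).det =
      (LinearMap.BilinForm.toMatrix b₁ B₁).det ^ Fintype.card κ * (LinearMap.BilinForm.toMatrix b₂ B₂).det ^ Fintype.card ι := by
  rw [gram_tmul, Matrix.det_kronecker]

variable [FiniteDimensional F U] [FiniteDimensional F W]

theorem nondegenerate_tmul (B₁ : LinearMap.BilinForm F U) (B₂ : LinearMap.BilinForm F W)
    (h₁ : B₁.Nondegenerate) (h₂ : B₂.Nondegenerate) :
    LinearMap.BilinForm.Nondegenerate (B₁.tmul B₂) := by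
  have b₁ := finBasis F U
  have b₂ := finBasis F W
  rw [nondegenerate_iff_det (b₁.tensorProduct b₂), det_gram_tmul]
  exact mul_ne_zero (pow_ne_zero _ ((nondegenerate_iff_det b₁ B₁).mp h₁))
    (pow_ne_zero _ ((nondegenerate_iff_det b₂ B₂).mp h₂))

end Cfsg.Agent.Lib.QuadDisc.Tensor
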